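import Cfsg.Prelude.Def_SporadicCombinatorics
import Cfsg.Agent.Lib.Spor.F4
import Cfsg.Agent.Lib.Golay.Sextet
import Cfsg.Agent.Lib.PG.Iso
import Cfsg.Agent.Lib.PG.Hom

/-! The hexacode and its monomial automorphisms. -/

set_option autoImplicit false
set_option maxRecDepth 100000
set_option exponentiation.threshold 100000
set_option linter.unusedSectionVars false

namespace Cfsg.Agent.Hexa

open Cfsg Cfsg.Agent.PG Cfsg.Agent.Spor Equiv
open Cfsg.Agent.Golay (ncard_fiber)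

/-- the word with given coefficients -/
def hx (t : F4 × F4 × F4) : Fin 6 → F4 := fun i =>
  t.1 * ![F4.w, F4.v, F4.v, F4.w, F4.v, F4.w] i + t.2.1 * ![F4.v, F4.w, F4.w, F4.v, F4.v, F4.w] i +
    t.2.2 * ![F4.v, F4.w, F4.v, F4.w, F4.w, F4.v] i

/-- parity checks -/
def Chk (y : Fin 6 → F4) : Prop := y 3 = F4.o * y 0 + F4.o * y 1 + F4.o * y 2 ∧ y 4 = F4.v * y 0 + F4.w * y 1 + F4.o * y 2 ∧ y 5 = F4.w * y 0 + F4.v * y 1 + F4.o * y 2

instance (y : Fin 6 → F4) : Decidable (Chk y) := by unfold Chk; infer_instance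

theorem chk_iff (y : Fin 6 → F4) : (∃ t, hx t = y) ↔ Chk y := by
  constructor
  · rintro ⟨t, rfl⟩
    revert t
    decide +kernel
  · rintro ⟨h1, h2, h3⟩
    have : ∀ a b c : F4, ∃ t, hx t = ![a, b, c, F4.o * a + F4.o * b + F4.o * c, F4.v * a + F4.w * b + F4.o * c, F4.w * a + F4.v * b + F4.o * c] := by decide +kernel
    obtain ⟨t, ht⟩ := this (y 0) (y 1) (y 2)
    refine ⟨t, ht.trans ?_⟩
    rw [← h1, ← h2, ← h3]
    funext i
    fin_cases i <;> rfl

theorem hx_inj : Function.Injective hx := by decide +kernel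

variable {F : Type*} [Field F] [Fintype F] [DecidableEq F] (hF : Fintype.card F = 4) (ω : F)
  (hω : ω ^ 2 + ω + 1 = 0)

theorem mem_iff (x : Fin 6 → F) :
    x ∈ hexacode F ω ↔ ∃ t, (fun i => F4.equiv hF ω hω (hx t i)) = x := by
  have e : ∀ t : F4 × F4 × F4, (fun i => F4.equiv hF ω hω (hx t i)) =
      F4.equiv hF ω hω t.1 • ![ω, ω ^ 2, ω ^ 2, ω, ω ^ 2, ω] +
      F4.equiv hF ω hω t.2.1 • ![ω ^ 2, ω, ω, ω ^ 2, ω ^ 2, ω] +
      F4.equiv hF ω hω t.2.2 • ![ω ^ 2, ω, ω ^ 2, ω, ω, ω ^ 2] := fun t => by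
    funext i
    simp only [hx, map_add, map_mul, Pi.add_apply, Pi.smul_apply, smul_eq_mul]
    fin_cases i <;> rfl
  rw [hexacode, Submodule.mem_span_triple]
  constructor
  · rintro ⟨a, b, c, rfl⟩
    exact ⟨((F4.equiv hF ω hω).symm a, (F4.equiv hF ω hω).symm b, (F4.equiv hF ω hω).symm c), by
      rw [e]; simp⟩
  · rintro ⟨t, rfl⟩
    exact ⟨_, _, _, (e t).symm⟩

theorem mem_iff' (y : Fin 6 → F4) :
    (fun i => F4.equiv hF ω hω (y i)) ∈ hexacode F ω ↔ Chk y := by
  rw [mem_iff hF ω hω, ← chk_iff]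
  exact exists_congr fun t => ⟨fun h => funext fun i => (F4.equiv hF ω hω).injective (congrFun h i),
    fun h => by rw [h]⟩

include hF hω in
theorem ncard_code (P : Finset (Fin 6) → Prop) [DecidablePred P] :
    {x : Fin 6 → F | x ∈ hexacode F ω ∧ P (Finset.univ.filter fun i => x i ≠ 0)}.ncard =
      (Finset.univ.filter fun t => P (Finset.univ.filter fun i => hx t i ≠ 0)).card := by
  rw [← Set.ncard_coe_finset, ← Set.ncard_image_of_injective _
    (f := fun t i => F4.equiv hF ω hω (hx t i)) fun a b h =>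
      hx_inj (funext fun i => (F4.equiv hF ω hω).injective (congrFun h i))]
  congr 1
  ext x
  simp only [Set.mem_ofPred_eq, mem_iff hF ω hω, Set.mem_image, Finset.coe_filter, Finset.mem_univ,
    true_and]
  constructor
  · rintro ⟨⟨t, rfl⟩, h⟩
    exact ⟨t, by simpa using h, rfl⟩
  · rintro ⟨t, h, rfl⟩
    exact ⟨⟨t, rfl⟩, by simpa using h⟩

/-- the monomial map preserves the code -/
def Pres (σ : Perm (Fin 6)) (c : Fin 6 → Fˣ) : Prop :=
  ∀ x ∈ hexacode F ω, monomialMap σ c x ∈ hexacode F ω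

/-- the same over the explicit field -/
def Pres4 (σ : Perm (Fin 6)) (d : Fin 6 → F4) : Prop :=
  Chk (fun i => d i * hx (1, 0, 0) (σ.symm i)) ∧ Chk (fun i => d i * hx (0, 1, 0) (σ.symm i)) ∧
    Chk (fun i => d i * hx (0, 0, 1) (σ.symm i))

instance (σ : Perm (Fin 6)) (d : Fin 6 → F4) : Decidable (Pres4 σ d) := by
  unfold Pres4; infer_instance

theorem pres_iff {σ : Perm (Fin 6)} {c : Fin 6 → Fˣ} {d : Fin 6 → F4}
    (h : ∀ i, F4.equiv hF ω hω (d i) = c i) : Pres ω σ c ↔ Pres4 σ d := by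
  have e : ∀ t, monomialMap σ c (fun i => F4.equiv hF ω hω (hx t i)) =
      fun i => F4.equiv hF ω hω (d i * hx t (σ.symm i)) := fun t => by
    funext i; simp only [monomialMap, map_mul, h]
  constructor
  · intro hp
    refine ⟨?_, ?_, ?_⟩ <;> rw [← mem_iff' hF ω hω, ← e] <;>
      exact hp _ ((mem_iff hF ω hω _).2 ⟨_, rfl⟩)
  · rintro ⟨h1, h2, h3⟩ x hx'
    obtain ⟨t, rfl⟩ := (mem_iff hF ω hω x).1 hx'
    rw [← mem_iff' hF ω hω] at h1 h2 h3
    rw [e]
    convert (hexacode F ω).add_mem ((hexacode F ω).add_mem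
      ((hexacode F ω).smul_mem (F4.equiv hF ω hω t.1) h1)
      ((hexacode F ω).smul_mem (F4.equiv hF ω hω t.2.1) h2))
      ((hexacode F ω).smul_mem (F4.equiv hF ω hω t.2.2) h3) using 1
    funext i
    simp only [Pi.add_apply, Pi.smul_apply, smul_eq_mul, ← map_mul, ← map_add, hx]
    congr 1
    ring

theorem ne_zero4 (u : Fˣ) : (F4.equiv hF ω hω).symm u ≠ 0 := by simp

include hF hω in
theorem diag {c : Fin 6 → Fˣ} (h : Pres ω 1 c) (i j : Fin 6) : c i = c j := by
  have h1 := (pres_iff hF ω hω (d := fun i => (F4.equiv hF ω hω).symm (c i)) (by simp)).1 h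
  have key : ∀ a b c d e f : F4, Pres4 1 ![a, b, c, d, e, f] →
      ∀ i, ![a, b, c, d, e, f] i = a := by decide +kernel
  have e : (fun i => (F4.equiv hF ω hω).symm (c i)) = ![(F4.equiv hF ω hω).symm (c 0),
      (F4.equiv hF ω hω).symm (c 1), (F4.equiv hF ω hω).symm (c 2), (F4.equiv hF ω hω).symm (c 3),
      (F4.equiv hF ω hω).symm (c 4), (F4.equiv hF ω hω).symm (c 5)] := by
    funext i; fin_cases i <;> rfl
  rw [e] at h1
  have h2 := key _ _ _ _ _ _ h1
  rw [← e] at h2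
  exact Units.ext ((F4.equiv hF ω hω).symm.injective ((h2 i).trans (h2 j).symm))

include hF hω in
theorem not_swap (c : Fin 6 → Fˣ) : ¬ Pres ω (swap 0 1) c := fun h => by
  have h1 := (pres_iff hF ω hω (d := fun i => (F4.equiv hF ω hω).symm (c i)) (by simp)).1 h
  have key : ∀ a b c d e f : F4, Pres4 (swap 0 1) ![a, b, c, d, e, f] → a = 0 := by decide +kernel
  have e : (fun i => (F4.equiv hF ω hω).symm (c i)) = ![(F4.equiv hF ω hω).symm (c 0),
      (F4.equiv hF ω hω).symm (c 1), (F4.equiv hF ω hω).symm (c 2), (F4.equiv hF ω hω).symm (c 3),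
      (F4.equiv hF ω hω).symm (c 4), (F4.equiv hF ω hω).symm (c 5)] := by
    funext i; fin_cases i <;> rfl
  rw [e] at h1
  exact ne_zero4 hF ω hω _ (key _ _ _ _ _ _ h1)

theorem mono_mono (σ τ : Perm (Fin 6)) (c d : Fin 6 → Fˣ) (x : Fin 6 → F) :
    monomialMap σ c (monomialMap τ d x) = monomialMap (σ * τ) (fun i => c i * d (σ.symm i)) x := by
  funext i
  simp only [monomialMap, Units.val_mul, mul_assoc]
  rfl

theorem mono_one (x : Fin 6 → F) : monomialMap 1 (fun _ => (1 : Fˣ)) x = x := by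
  funext i
  simp only [monomialMap, Units.val_one, one_mul]
  rfl

theorem Pres.mul {σ τ : Perm (Fin 6)} {c d : Fin 6 → Fˣ} (h : Pres ω σ c) (h' : Pres ω τ d) :
    Pres ω (σ * τ) (fun i => c i * d (σ.symm i)) := fun x hx => by
  rw [← mono_mono]; exact h _ (h' x hx)

theorem Pres.inv {σ : Perm (Fin 6)} {c : Fin 6 → Fˣ} (h : Pres ω σ c) :
    Pres ω σ⁻¹ (fun i => (c (σ i))⁻¹) := by
  have e : ∀ x, monomialMap σ⁻¹ (fun i => (c (σ i))⁻¹) (monomialMap σ c x) = x := by
    intro x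
    rw [mono_mono, inv_mul_cancel]
    conv_rhs => rw [← mono_one x]
    congr 1
    funext i
    exact inv_mul_cancel _
  have hinj : Function.Injective fun x : hexacode F ω =>
      (⟨monomialMap σ c x, h x x.2⟩ : hexacode F ω) := fun x y hxy => by
    apply Subtype.ext
    rw [← e x, ← e y]
    exact congrArg _ (congrArg Subtype.val hxy)
  intro y hy
  obtain ⟨x, hx⟩ := Finite.injective_iff_surjective.1 hinj ⟨y, hy⟩
  have : monomialMap σ c x = y := congrArg Subtype.val hx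
  rw [← this, e]
  exact x.2

/-- the permutation parts -/
def MG : Subgroup (Perm (Fin 6)) where
  carrier := {σ | ∃ c, Pres ω σ c}
  one_mem' := ⟨fun _ => 1, fun x hx => by rw [mono_one]; exact hx⟩
  mul_mem' := fun ⟨_, h⟩ ⟨_, h'⟩ => ⟨_, h.mul ω h'⟩
  inv_mem' := fun ⟨_, h⟩ => ⟨_, h.inv ω⟩

include hF hω in
theorem mem_MG {σ : Perm (Fin 6)} {d : Fin 6 → F4} (h : (∀ i, d i ≠ 0) ∧ Pres4 σ d) : σ ∈ MG ω :=
  ⟨fun i => Units.mk0 (F4.equiv hF ω hω (d i)) (by simpa using h.1 i),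
    (pres_iff hF ω hω fun _ => rfl).2 h.2⟩

noncomputable def An0 : Net :=
 (.cons 2 0x1
 (.cons 1 0x1
 .nil))

noncomputable def An1 : Net :=
 (.cons 4 0x3
 (.cons 2 0x1
 (.cons 1 0x5
 (.cons 4 0x1
 .nil))))

noncomputable def A : List Net := [An0, An1]

theorem hA : okA (2 ^ 3) A = true := by decide +kernel

include hF hω in
theorem MG_eq : MG ω = alternatingGroup (Fin 6) := by
  have acts : ∀ σ ∈ K A 0, ∃ g : MG ω,
      Acts (fun i => Fin.ofNat 6 (i - 0)) (bset (ivl 0 (0 + 6))) g σ := by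
    refine acts_K_of_gens fun j _ hj => ?_
    have : j < 2 := hj
    interval_cases j
    · exact ⟨⟨⟨![1, 2, 0, 3, 4, 5], ![2, 0, 1, 3, 4, 5], by decide, by decide⟩,
        mem_MG hF ω hω (d := ![F4.o, F4.o, F4.o, F4.o, F4.v, F4.w]) (by decide +kernel)⟩,
        acts_of_imgs hA (imgs := [1, 2, 0, 3, 4, 5]) (by decide +kernel)
          (show ∀ k < 6, ![1, 2, 0, 3, 4, 5] (Fin.ofNat 6 k) = Fin.ofNat 6 ([1, 2, 0, 3, 4, 5].getD k 0) by decide +kernel)⟩
    · exact ⟨⟨⟨![0, 2, 3, 4, 5, 1], ![0, 5, 1, 2, 3, 4], by decide, by decide⟩,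
        mem_MG hF ω hω (d := ![F4.o, F4.v, F4.w, F4.v, F4.o, F4.w]) (by decide +kernel)⟩,
        acts_of_imgs hA (imgs := [0, 2, 3, 4, 5, 1]) (by decide +kernel)
          (show ∀ k < 6, ![0, 2, 3, 4, 5, 1] (Fin.ofNat 6 k) = Fin.ofNat 6 ([0, 2, 3, 4, 5, 1].getD k 0) by decide +kernel)⟩
  have h1 := card_ge_of_lb hA (H := (⊤ : Subgroup (MG ω))) (l := 1) (t := 0)
    (fun σ hσ => (acts σ hσ).imp fun g hg => ⟨Subgroup.mem_top g, hg⟩)
    (injOn_shift (by decide)) (lv := [(0, [[0x200], [0x204]], 5, 6),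
  (1, [[0x206]], 5, 5),
  (2, [[0x20004000606], [0x202060206]], 2, 4),
  (3, [[0x20402060204]], 3, 3)]) (by decide +kernel)
    (by simp only [bset, Set.mem_ofPred_eq]; decide +kernel)
  rw [Subgroup.card_top] at h1
  replace h1 : 360 ≤ Nat.card (MG ω) := le_trans (by decide +kernel) h1
  apply Perm.eq_alternatingGroup_of_index_eq_two
  have h2 := (MG ω).card_mul_index
  rw [Nat.card_perm, Nat.card_fin, show Nat.factorial 6 = 720 by decide] at h2
  have h3 : (MG ω).index ≠ 1 := fun h => by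
    obtain ⟨c, hc⟩ : swap 0 1 ∈ MG ω := Subgroup.index_eq_one.1 h ▸ Subgroup.mem_top _
    exact not_swap hF ω hω c hc
  have h4 : (MG ω).index ≠ 0 := Subgroup.index_ne_zero_of_finite
  by_contra h5
  have := Nat.mul_le_mul h1 (show 3 ≤ (MG ω).index by omega)
  omega

include hF hω in
theorem card_mon : Nat.card {f : Perm (Fin 6) × (Fin 6 → Fˣ) // Pres ω f.1 f.2} = 1080 := by
  have h := ncard_fiber (P := {f : Perm (Fin 6) × (Fin 6 → Fˣ) | Pres ω f.1 f.2})
    (Q := (MG ω : Set (Perm (Fin 6)))) (Set.toFinite _) (Set.toFinite _) Prod.fst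
    (fun f hf => ⟨f.2, hf⟩) (c := 3) (by
      rintro σ ⟨c, hc⟩
      have e : {x : Perm (Fin 6) × (Fin 6 → Fˣ) | x ∈ {f : Perm (Fin 6) × (Fin 6 → Fˣ) |
          Pres ω f.1 f.2} ∧ x.1 = σ} = Set.range fun u : Fˣ => (σ, fun i => u * c i) := by
        ext ⟨τ, d⟩
        simp only [Set.mem_ofPred_eq, Set.mem_range, Prod.mk.injEq]
        constructor
        · rintro ⟨h1, rfl⟩
          have h2 := h1.mul ω (hc.inv ω)
          rw [mul_inv_cancel] at h2
          simp only [Equiv.apply_symm_apply] at h2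
          exact ⟨d 0 * (c 0)⁻¹, rfl, funext fun i => by
            rw [diag hF ω hω h2 0 i, inv_mul_cancel_right]⟩
        · rintro ⟨u, rfl, rfl⟩
          refine ⟨fun x hx => ?_, rfl⟩
          convert (hexacode F ω).smul_mem (u : F) (hc x hx) using 1
          funext i
          simp only [monomialMap, Units.val_mul, Pi.smul_apply, smul_eq_mul, mul_assoc]
      rw [e, Set.ncard_range_of_injective fun u v h => mul_right_cancel
        (congrFun (congrArg Prod.snd h) 0), Nat.card_units, Nat.card_eq_fintype_card, hF])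
  have h2 : (MG ω : Set (Perm (Fin 6))).ncard = 360 := by
    rw [MG_eq hF ω hω]
    show Nat.card (alternatingGroup (Fin 6)) = 360
    rw [nat_card_alternatingGroup, Nat.card_fin]
    decide
  rw [h2] at h
  exact h

end Cfsg.Agent.Hexa
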